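import Mathlib
import Cfsg.Agent.Base
import Cfsg.Agent.Lib.Tech58.SysNorm
import Cfsg.Agent.Lib.Core.Coprime
import Cfsg.Agent.Lib.Solv.Zipper

/-! Carter subgroups and system normalizers of solvable groups. -/

set_option autoImplicit false
set_option linter.style.haveILetI false
set_option linter.unusedSectionVars false

open Cfsg Subgroup
open scoped Pointwise commutatorElement

namespace H58

universe u

variable {G : Type*} [Group G] [Finite G]

theorem hall_normal_of_isNilpotent [Group.IsNilpotent G] {p : ℕ} (hp : p.Prime) {H : Subgroup G}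
    (hH : IsPiHall ({p}ᶜ) H) : H = pPrimeCore p G := by
  haveI := Fact.mk hp
  refine le_antisymm (H1.le_pPrimeCore_of_isSubnormal ?_
    ((H3.isPiHall_compl_singleton_iff hp).1 hH).1) (H3.le_of_isPiHall_of_normal hH
    (H1.isPiSubgroup_compl_singleton_iff.2 H1.coprime_card_pPrimeCore))
  exact H21.isSubnormal_of_isNilpotent H

theorem systemNormalizer_eq_top [Group.IsNilpotent G] {K : Nat.Primes → Subgroup G}
    (hK : IsComplementSystem K) : systemNormalizer K = ⊤ := by
  rw [eq_top_iff]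
  intro x _
  refine mem_systemNormalizer.2 fun p => ?_
  rw [hall_normal_of_isNilpotent p.2 (isComplementSystem_iff.1 hK p), normalizer_eq_top]
  exact mem_top x

theorem sup_systemNormalizer [Group.IsSolvable G] {K : Nat.Primes → Subgroup G}
    (hK : IsComplementSystem K) (N : Subgroup G) [N.Normal] (hN : Group.IsNilpotent (G ⧸ N)) :
    systemNormalizer K ⊔ N = ⊤ := by
  have h1 := systemNormalizer_map hK (QuotientGroup.mk'_surjective N)
  rw [systemNormalizer_eq_top (system_map hK (QuotientGroup.mk'_surjective N))] at h1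
  have h2 := comap_map_eq (QuotientGroup.mk' N) (systemNormalizer K)
  rwa [← h1, comap_top, QuotientGroup.ker_mk', eq_comm] at h2

/-- A noncentral minimal normal `p`-subgroup has no fixed points under a Hall `p'`-subgroup. -/
theorem inf_centralizer_hall_eq_bot [Group.IsSolvable G] {p : ℕ} (hp : p.Prime) {B : Subgroup G}
    [B.Normal] (hB : IsPGroup p B) (hmin : ∀ L : Subgroup G, L.Normal → L ≤ B → L = ⊥ ∨ L = B)
    (hnc : ¬ B ≤ center G) {H : Subgroup G} (hH : IsPiHall ({p}ᶜ) H) :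
    B ⊓ centralizer (H : Set G) = ⊥ := by
  haveI := Fact.mk hp
  set C := centralizer (B : Set G) with hC
  have hCt : (⊤ : Subgroup (G ⧸ C)) ≠ ⊥ := by
    intro h
    refine hnc fun b hb => mem_center_iff.2 fun g => ?_
    have : g ∈ C := (QuotientGroup.eq_one_iff g).1 (mem_bot.1 (h ▸ mem_top _))
    exact (mem_centralizer_iff.1 this b hb).symm
  obtain ⟨L, r, hr, hLn, hL0, -, -, -, hLr, -⟩ :=
    H1.exists_elementary_abelian_normal_le ⊤ hCt inferInstance
  have h1 : B ⊓ centralizer (L.comap (QuotientGroup.mk' C) : Set G) = ⊥ := by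
    refine (hmin _ inferInstance inf_le_left).resolve_right fun h => hL0 ?_
    rw [eq_bot_iff]
    intro y hy
    obtain ⟨g, rfl⟩ := QuotientGroup.mk'_surjective C y
    exact mem_bot.2 ((QuotientGroup.eq_one_iff g).2
      (le_centralizer_iff.1 (h.symm.le.trans inf_le_right) hy))
  have key : ∀ T : Subgroup G, L ≤ T.map (QuotientGroup.mk' C) →
      B ⊓ centralizer (T : Set G) = ⊥ := by
    intro T hT
    rw [eq_bot_iff, ← h1]
    refine fun b hb => ⟨hb.1, le_centralizer_iff.1 ?_ (mem_zpowers b)⟩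
    refine (comap_mono hT).trans ?_
    rw [comap_map_eq, QuotientGroup.ker_mk']
    exact sup_le (le_centralizer_iff.1 (zpowers_le.2 hb.2)) (centralizer_le (zpowers_le.2 hb.1))
  by_cases hrp : r = p
  · subst hrp
    obtain ⟨T⟩ : Nonempty (Sylow r G) := inferInstance
    have h2 := key T ((H1.le_pCore hLr).trans
      (H1.pCore_le_sylow (T.mapSurjective (QuotientGroup.mk'_surjective C))))
    have hB0 : B ≠ ⊥ := fun h => hnc (h ▸ bot_le)
    obtain ⟨z, hz, hzT, hzo⟩ := H5.exists_mem_centralizer_orderOf_eq T.2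
      ((H1.le_pCore hB).trans (H1.pCore_le_sylow T)) le_normalizer_of_normal hB0
    have : z = 1 := mem_bot.1 (h2 ▸ ⟨hz, hzT⟩)
    rw [this, orderOf_one] at hzo
    exact absurd hzo hr.one_lt.ne
  · haveI := Fact.mk hr
    refine key H (H3.le_of_isPiHall_of_normal (H3.isPiHall_map hH (QuotientGroup.mk'_surjective C))
      (H1.isPiSubgroup_mono (H1.isPiSubgroup_singleton_iff.2 hLr) ?_))
    rintro _ rfl
    exact hrp

theorem mem_centralizer_of_normalizes {B H T : Subgroup G} [hBn : B.Normal]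
    (hHT : H ≤ T) (hBT : B ⊓ T = ⊥) {b : G} (hb : b ∈ B) (h : ∀ k ∈ H, b * k * b⁻¹ ∈ T) :
    b ∈ centralizer (H : Set G) := by
  refine mem_centralizer_iff.2 fun k hk => ?_
  have h1 : b * k * b⁻¹ * k⁻¹ ∈ B ⊓ T := ⟨by
    simpa [mul_assoc] using mul_mem hb (hBn.conj_mem _ (inv_mem hb) k),
    T.mul_mem (h k hk) (T.inv_mem (hHT hk))⟩
  rw [hBT, mem_bot, mul_inv_eq_one, mul_inv_eq_iff_eq_mul] at h1
  exact h1.symm

theorem inf_systemNormalizer_eq_bot [Group.IsSolvable G] {K : Nat.Primes → Subgroup G}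
    (hK : IsComplementSystem K) {B : Subgroup G} [B.Normal]
    (hmin : ∀ L : Subgroup G, L.Normal → L ≤ B → L = ⊥ ∨ L = B) (hnc : ¬ B ≤ center G) :
    B ⊓ systemNormalizer K = ⊥ := by
  have hB0 : B ≠ ⊥ := fun h => hnc (h ▸ bot_le)
  obtain ⟨L, p, hp, hLn, hL0, hLB, -, -, hLp, -⟩ :=
    H1.exists_elementary_abelian_normal_le B hB0 inferInstance
  obtain rfl := (hmin L hLn hLB).resolve_left hL0
  haveI := Fact.mk hp
  have hH := isComplementSystem_iff.1 hK ⟨p, hp⟩
  rw [eq_bot_iff, ← inf_centralizer_hall_eq_bot hp hLp hmin hnc hH]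
  refine fun b hb => ⟨hb.1, mem_centralizer_of_normalizes le_rfl ?_ hb.1 fun k hk =>
    H3.conj_mem_of_mem_normalizer (mem_systemNormalizer.1 hb.2 _) hk⟩
  rw [inf_comm]
  exact H4.inf_eq_bot_of_not_dvd_card (not_dvd_card_of_hall hp hH) hLp

theorem isNilpotent_of_normal_hall {p : ℕ} (hp : p.Prime) {N Q : Subgroup G} [N.Normal]
    (hN : IsPGroup p N) (hq : Group.IsNilpotent (G ⧸ N)) (hQ : IsPiHall ({p}ᶜ) Q) [Q.Normal] :
    Group.IsNilpotent G := by
  haveI := Fact.mk hp
  refine isNilpotent_of_forall_npc fun r hr => ?_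
  haveI := Fact.mk hr
  by_cases hrp : r = p
  · subst hrp
    obtain ⟨-, k, hk⟩ := (H3.isPiHall_compl_singleton_iff hp).1 hQ
    exact H4.hasNormalPComplement_of_index (not_dvd_card_of_hall hp hQ) (dvd_of_eq hk)
  · refine H4.hasNormalPComplement_of_quotient_coprime (N := N) (fun h => hrp ?_)
      H4.hasNormalPComplement_of_isNilpotent
    obtain ⟨k, hk⟩ := IsPGroup.iff_card.1 hN
    exact (Nat.prime_dvd_prime_iff_eq hr hp).1 (hr.dvd_of_dvd_pow (hk ▸ h))

theorem IsCarter.subgroupOf {C H : Subgroup G} (hC : IsCarterSubgroup C) (h : C ≤ H) :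
    IsCarterSubgroup (C.subgroupOf H) :=
  ⟨H1.isNilpotent_subgroupOf hC.1 H, by rw [← subgroupOf_normalizer_eq h, hC.2]⟩

theorem IsCarter.smul {C : Subgroup G} (hC : IsCarterSubgroup C) (g : G) :
    IsCarterSubgroup (MulAut.conj g • C) :=
  ⟨H1.conj_smul_eq_map g C ▸ H1.isNilpotent_map hC.1 _, by rw [H1.normalizer_conj_smul, hC.2]⟩

theorem IsCarter.eq_of_le {C D : Subgroup G} (hC : IsCarterSubgroup C) (hD : Group.IsNilpotent D)
    (h : C ≤ D) : C = D :=
  le_antisymm h (H2.le_of_normalizer_inf_le hD h (inf_le_right.trans hC.2.le))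

theorem conj_of_conj_subgroupOf {C D H : Subgroup G} (hC : C ≤ H) (hD : D ≤ H) {g : H}
    (h : MulAut.conj g • C.subgroupOf H = D.subgroupOf H) : MulAut.conj (g : G) • C = D := by
  have := congrArg (map H.subtype) h
  rwa [H1.map_conj_smul, map_subgroupOf_eq_of_le hC, map_subgroupOf_eq_of_le hD] at this

theorem isCoatom_of_sup_minNormal {C N : Subgroup G} [hNn : N.Normal] (hab : IsMulCommutative N)
    (hmin : ∀ L : Subgroup G, L.Normal → L ≤ N → L = ⊥ ∨ L = N) (h : C ⊔ N = ⊤) {M : Subgroup G}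
    (hCM : C ≤ M) (hM : M ≠ ⊤) : N ⊓ M = ⊥ ∧ M ≤ C := by
  have h1 : (N ⊓ M).Normal := by
    rw [← normalizer_eq_top_iff, eq_top_iff, ← h]
    refine sup_le (hCM.trans fun m hm => H3.mem_normalizer_of_conj_mem fun x hx =>
      ⟨hNn.conj_mem x hx.1 m, M.mul_mem (M.mul_mem hm hx.2) (M.inv_mem hm)⟩)
      fun n hn => H3.mem_normalizer_of_conj_mem fun x hx => ?_
    have : n * x = x * n := congrArg Subtype.val (hab.is_comm.comm (⟨n, hn⟩ : N) ⟨x, hx.1⟩)
    rw [this, mul_inv_cancel_right]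
    exact hx
  have h2 : N ⊓ M = ⊥ := (hmin _ h1 inf_le_left).resolve_right fun h2 =>
    hM (eq_top_iff.2 (h ▸ sup_le hCM (h2 ▸ inf_le_right)))
  refine ⟨h2, fun m hm => ?_⟩
  obtain ⟨c, hc, n, hn, rfl⟩ := H3.mem_sup_iff_of_normal'.1 (h ▸ mem_top m)
  have : n ∈ N ⊓ M := ⟨hn, by simpa using mul_mem (inv_mem (hCM hc)) hm⟩
  rw [h2, mem_bot] at this
  rwa [this, mul_one]

theorem IsCarter.normalizer_sup {C N : Subgroup G} [N.Normal] (hC : IsCarterSubgroup C)
    (hconj : ∀ D : Subgroup G, D ≤ C ⊔ N → IsCarterSubgroup D →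
      ∃ h ∈ C ⊔ N, MulAut.conj h • D = C) :
    normalizer ((C ⊔ N : Subgroup G) : Set G) = C ⊔ N := by
  refine le_antisymm (fun x hx => ?_) le_normalizer
  obtain ⟨h, hh, e⟩ := hconj (MulAut.conj x • C) (H3.conj_smul_le_iff.2 fun c hc =>
    H3.conj_mem_of_mem_normalizer hx (mem_sup_left hc)) (IsCarter.smul hC x)
  rw [H1.conj_smul_conj_smul, ← H1.mem_normalizer_iff_conj_smul_eq, hC.2] at e
  simpa using mul_mem (inv_mem hh) (mem_sup_left e : h * x ∈ C ⊔ N)

theorem IsCarter.map_of_normalizer {C N : Subgroup G} [N.Normal] (hC : IsCarterSubgroup C)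
    (h : normalizer ((C ⊔ N : Subgroup G) : Set G) = C ⊔ N) :
    IsCarterSubgroup (C.map (QuotientGroup.mk' N)) := by
  refine ⟨H1.isNilpotent_map hC.1 _, comap_injective (QuotientGroup.mk'_surjective N) ?_⟩
  rw [comap_normalizer_eq_of_surjective _ (QuotientGroup.mk'_surjective N), comap_map_eq,
    QuotientGroup.ker_mk', h]

theorem carter_conj_aux (n : ℕ) : ∀ (G : Type u) [Group G] [Finite G] [Group.IsSolvable G],
    Nat.card G = n → ∀ C D : Subgroup G, IsCarterSubgroup C → IsCarterSubgroup D →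
      ∃ g : G, MulAut.conj g • C = D := by
  induction n using Nat.strong_induction_on with
  | _ n ih =>
  intro G _ _ _ hn C D hC hD
  have sub : ∀ H : Subgroup G, H ≠ ⊤ → ∀ C D : Subgroup G, C ≤ H → D ≤ H → IsCarterSubgroup C →
      IsCarterSubgroup D → ∃ g ∈ H, MulAut.conj g • C = D := by
    intro H hH C D h1 h2 hC hD
    obtain ⟨g, hg⟩ := ih _ (hn ▸ H1.card_lt_of_ne_top hH) H rfl _ _ (IsCarter.subgroupOf hC h1)
      (IsCarter.subgroupOf hD h2)
    exact ⟨g, g.2, conj_of_conj_subgroupOf h1 h2 hg⟩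
  by_cases hnil : Group.IsNilpotent G
  · have h1 : Group.IsNilpotent (⊤ : Subgroup G) := inferInstance
    exact ⟨1, by rw [map_one, one_smul, IsCarter.eq_of_le hC h1 le_top,
      IsCarter.eq_of_le hD h1 le_top]⟩
  have hne : ∀ C : Subgroup G, IsCarterSubgroup C → C ≠ ⊤ := by
    rintro _ hC rfl
    haveI := hC.1
    exact hnil (Group.nilpotent_of_mulEquiv topEquiv)
  obtain ⟨N, p, hp, hNn, hN0, -, hab, -, hNp, hmin⟩ :=
    H1.exists_elementary_abelian_normal_le (⊤ : Subgroup G)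
      (fun h => hne C hC (eq_top_iff.2 (h ▸ bot_le))) inferInstance
  have hq : ∀ C : Subgroup G, IsCarterSubgroup C →
      IsCarterSubgroup (C.map (QuotientGroup.mk' N)) := by
    intro C hC
    by_cases h : C ⊔ N = ⊤
    · exact IsCarter.map_of_normalizer hC (by rw [h]; exact normalizer_eq_top _)
    · exact IsCarter.map_of_normalizer hC (IsCarter.normalizer_sup hC fun D h1 hD =>
        sub _ h D C h1 le_sup_left hD hC)
  obtain ⟨y, hy⟩ := ih _ (hn ▸ H1.card_quotient_lt hN0) (G ⧸ N) rfl _ _ (hq C hC) (hq D hD)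
  obtain ⟨g, rfl⟩ := QuotientGroup.mk'_surjective N y
  rw [← H1.map_conj_smul] at hy
  suffices h : ∀ C : Subgroup G, IsCarterSubgroup C → C ⊔ N = D ⊔ N →
      ∃ g : G, MulAut.conj g • C = D by
    obtain ⟨k, hk⟩ := h _ (IsCarter.smul hC g) (by
      have := congrArg (comap (QuotientGroup.mk' N)) hy
      simpa only [comap_map_eq, QuotientGroup.ker_mk'] using this)
    exact ⟨k * g, by rw [← H1.conj_smul_conj_smul, hk]⟩
  intro C hC hCD
  by_cases h : D ⊔ N = ⊤
  swap
  · obtain ⟨g, -, hg⟩ := sub _ h C D (hCD ▸ le_sup_left) le_sup_left hC hD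
    exact ⟨g, hg⟩
  haveI := Fact.mk hp
  have key : ∀ C : Subgroup G, IsCarterSubgroup C → C ⊔ N = ⊤ →
      ∃ Q : Subgroup G, IsPiHall ({p}ᶜ) Q ∧ normalizer (Q : Set G) = C := by
    intro C hC h
    haveI := hC.1
    obtain ⟨Q, hQ⟩ := H3.exists_isPiHall (G := C) ({p}ᶜ)
    have hQn : Q.Normal := by rw [hall_normal_of_isNilpotent hp hQ]; infer_instance
    have h1 : IsPiHall ({p}ᶜ) (Q.map C.subtype) := by
      refine H3.isPiHallOf_top_iff.1 (H3.isPiHallOf_trans (H3.isPiHallOf_map_subtype_iff.2 hQ)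
        le_top ?_)
      rw [← h, sup_comm, H3.relIndex_sup_right_of_le_normalizer le_normalizer_of_normal,
        compl_compl]
      exact (H3.isPiSubgroup_iff_piNum.1 (H1.isPiSubgroup_singleton_iff.2 hNp)).of_dvd
        (relIndex_dvd_card _ _)
    have h2 : C ≤ normalizer ((Q.map C.subtype : Subgroup G) : Set G) := by
      intro c hc
      have := le_normalizer_map C.subtype (mem_map_of_mem C.subtype
        (show (⟨c, hc⟩ : C) ∈ normalizer (Q : Set C) by rw [normalizer_eq_top]; exact mem_top _))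
      exact this
    refine ⟨_, h1, le_antisymm (isCoatom_of_sup_minNormal hab hmin h h2 fun h3 => hnil ?_).2 h2⟩
    haveI := normalizer_eq_top_iff.1 h3
    refine isNilpotent_of_normal_hall hp hNp ?_ h1
    have h4 : C.map (QuotientGroup.mk' N) = ⊤ := by
      apply comap_injective (QuotientGroup.mk'_surjective N)
      rw [comap_map_eq, QuotientGroup.ker_mk', h, comap_top]
    haveI : Group.IsNilpotent (⊤ : Subgroup (G ⧸ N)) :=
      h4 ▸ H1.isNilpotent_map hC.1 (QuotientGroup.mk' N)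
    exact Group.nilpotent_of_mulEquiv topEquiv
  obtain ⟨Q, hQ, rfl⟩ := key C hC (hCD.trans h)
  obtain ⟨R, hR, rfl⟩ := key D hD h
  obtain ⟨g, hg⟩ := H3.exists_conj_eq_of_isPiHall hQ hR
  exact ⟨g, by rw [← H1.normalizer_conj_smul, hg]⟩

theorem carter_conj [Group.IsSolvable G] {C D : Subgroup G} (hC : IsCarterSubgroup C)
    (hD : IsCarterSubgroup D) : ∃ g : G, MulAut.conj g • C = D :=
  carter_conj_aux _ G rfl C D hC hD

theorem IsCarter.normalizer_eq_of_le [Group.IsSolvable G] {C M : Subgroup G}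
    (hC : IsCarterSubgroup C) (h : C ≤ M) : normalizer (M : Set G) = M := by
  refine le_antisymm (fun x hx => ?_) le_normalizer
  have h1 : MulAut.conj x • C ≤ M :=
    H3.conj_smul_le_iff.2 fun c hc => H3.conj_mem_of_mem_normalizer hx (h hc)
  obtain ⟨g, hg⟩ := carter_conj (IsCarter.subgroupOf (IsCarter.smul hC x) h1)
    (IsCarter.subgroupOf hC h)
  have e := conj_of_conj_subgroupOf h1 h hg
  rw [H1.conj_smul_conj_smul, ← H1.mem_normalizer_iff_conj_smul_eq, hC.2] at e
  simpa using mul_mem (inv_mem g.2) (h e)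

theorem IsCarter.map [Group.IsSolvable G] {C : Subgroup G} (hC : IsCarterSubgroup C)
    (N : Subgroup G) [N.Normal] : IsCarterSubgroup (C.map (QuotientGroup.mk' N)) :=
  IsCarter.map_of_normalizer hC (IsCarter.normalizer_eq_of_le hC le_sup_left)

theorem isCarter_systemNormalizer [Group.IsSolvable G] (F : Subgroup G) [hFn : F.Normal]
    (hF : Group.IsNilpotent F) (hGF : Group.IsNilpotent (G ⧸ F)) {K : Nat.Primes → Subgroup G}
    (hK : IsComplementSystem K) : IsCarterSubgroup (systemNormalizer K) := by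
  refine ⟨isNilpotent_systemNormalizer hK, le_antisymm (fun x hx => ?_) le_normalizer⟩
  refine mem_systemNormalizer.2 fun p => H3.mem_normalizer_of_conj_mem fun k hk => ?_
  haveI := Fact.mk p.2
  have hH := isComplementSystem_iff.1 hK p
  have hreg : ∀ k ∈ K p, ¬ (p : ℕ) ∣ orderOf k := fun k hk =>
    H35.not_dvd_orderOf_of_mem (not_dvd_card_of_hall p.2 hH) hk
  obtain ⟨d, hd, f, hf, e⟩ := H3.mem_sup_iff_of_normal'.1
    (sup_systemNormalizer hK F hGF ▸ mem_top k)
  have h1 : H35.pReg p d ∈ systemNormalizer K := H35.pReg_mem p hd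
  have h2 : H35.pReg p d ∈ K p := mem_hall_of_normalizes p.2 hH (mem_systemNormalizer.1 h1 p)
    (H35.not_dvd_orderOf_pReg p d)
  have h3 : (H35.pReg p d)⁻¹ * k ∈ F := by
    have h4 : (d : G ⧸ F) = k := by
      rw [← e, QuotientGroup.mk_mul, (QuotientGroup.eq_one_iff f).2 hf, mul_one]
    rw [← QuotientGroup.eq, ← H35.pReg_mk, h4]
    exact H35.pReg_eq_self (H35.not_dvd_orderOf_map (QuotientGroup.mk' F) (hreg k hk))
  have h4 : ∀ y ∈ F, ¬ (p : ℕ) ∣ orderOf y → y ∈ K p := by
    intro y hy ho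
    have h5 : zpowers (⟨y, hy⟩ : F) ≤ pPrimeCore p F := by
      refine H1.le_pPrimeCore_of_isSubnormal (H21.isSubnormal_of_isNilpotent _) ?_
      rw [Nat.card_zpowers, ← Subgroup.orderOf_coe]
      exact ((Nat.Prime.coprime_iff_not_dvd p.2).2 ho).symm
    exact H3.le_of_isPiHall_of_normal hH (H1.isPiSubgroup_compl_singleton_iff.2
      H1.coprime_card_pPrimeCore) (H1.map_subtype_pPrimeCore_le F
        (mem_map_of_mem _ (h5 (mem_zpowers _))))
  rw [show x * k * x⁻¹ = x * H35.pReg p d * x⁻¹ * (x * ((H35.pReg p d)⁻¹ * k) * x⁻¹) by group]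
  refine mul_mem (mem_hall_of_normalizes p.2 hH (mem_systemNormalizer.1
    (H3.conj_mem_of_mem_normalizer hx h1) p) ?_) (h4 _ (hFn.conj_mem _ h3 x) ?_)
  · rw [H35.orderOf_conj]
    exact hreg _ h2
  · rw [H35.orderOf_conj]
    exact hreg _ (mul_mem (inv_mem h2) hk)

theorem exists_carter_aux (n : ℕ) : ∀ (G : Type u) [Group G] [Finite G] [Group.IsSolvable G],
    Nat.card G = n → ∃ C : Subgroup G, IsCarterSubgroup C := by
  induction n using Nat.strong_induction_on with
  | _ n ih =>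
  intro G _ _ _ hn
  by_cases h0 : (⊤ : Subgroup G) = ⊥
  · exact ⟨⊤, h0 ▸ inferInstance, normalizer_eq_top _⟩
  obtain ⟨N, p, hp, hNn, hN0, -, hab, -, hNp, hmin⟩ :=
    H1.exists_elementary_abelian_normal_le (⊤ : Subgroup G) h0 inferInstance
  obtain ⟨E, hE⟩ := ih _ (hn ▸ H1.card_quotient_lt hN0) (G ⧸ N) rfl
  by_cases hEt : E = ⊤
  · obtain ⟨K, hK⟩ := exists_isComplementSystem (G := G)
    haveI : Group.IsNilpotent (⊤ : Subgroup (G ⧸ N)) := hEt ▸ hE.1
    exact ⟨_, isCarter_systemNormalizer N H1.isNilpotent_of_isMulCommutative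
      (Group.nilpotent_of_mulEquiv topEquiv) hK⟩
  set H := E.comap (QuotientGroup.mk' N) with hH
  have hHt : H ≠ ⊤ := fun h => hEt (comap_injective (QuotientGroup.mk'_surjective N)
    (by rw [comap_top]; exact h))
  have hNH : N ≤ H := fun x hx => by
    rw [hH, mem_comap, QuotientGroup.mk'_apply, (QuotientGroup.eq_one_iff x).2 hx]
    exact one_mem _
  obtain ⟨C, hC⟩ := ih _ (hn ▸ H1.card_lt_of_ne_top hHt) H rfl
  have hHn : normalizer (H : Set G) = H := by
    rw [hH, ← comap_normalizer_eq_of_surjective _ (QuotientGroup.mk'_surjective N), hE.2]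
  have hsup : C ⊔ N.subgroupOf H = ⊤ := by
    have h1 : Group.IsNilpotent (H ⧸ N.subgroupOf H) := by
      haveI := hE.1
      let f : H →* E := ((QuotientGroup.mk' N).comp H.subtype).codRestrict E fun x => x.2
      have hf : f.ker = N.subgroupOf H := by
        ext x
        rw [MonoidHom.mem_ker, Subtype.ext_iff, mem_subgroupOf]
        exact QuotientGroup.eq_one_iff (x : G)
      exact Subgroup.isNilpotent_of_ker_le_center (QuotientGroup.lift _ f hf.ge) (by
        rw [(QuotientGroup.injective_lift_iff _ f hf.ge).2 hf.symm |> (MonoidHom.ker_eq_bot_iff _).2]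
        exact bot_le)
    have h2 := IsCarter.eq_of_le (IsCarter.map hC (N.subgroupOf H))
      (inferInstance : Group.IsNilpotent (⊤ : Subgroup (H ⧸ N.subgroupOf H))) le_top
    have h3 := comap_map_eq (QuotientGroup.mk' (N.subgroupOf H)) C
    rwa [h2, comap_top, QuotientGroup.ker_mk', eq_comm] at h3
  have hsup' : C.map H.subtype ⊔ N = H := by
    have := congrArg (map H.subtype) hsup
    rwa [Subgroup.map_sup, map_subgroupOf_eq_of_le hNH, ← MonoidHom.range_eq_map,
      range_subtype] at this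
  refine ⟨C.map H.subtype, H1.isNilpotent_map hC.1 _, le_antisymm (fun x hx => ?_) le_normalizer⟩
  have hxH : x ∈ H := by
    rw [← hHn, ← hsup']
    refine H3.mem_normalizer_of_conj_mem fun y hy => ?_
    obtain ⟨c, hc, m, hm, rfl⟩ := H3.mem_sup_iff_of_normal'.1 hy
    rw [show x * (c * m) * x⁻¹ = x * c * x⁻¹ * (x * m * x⁻¹) by group]
    exact mul_mem_sup (H3.conj_mem_of_mem_normalizer hx hc) (hNn.conj_mem m hm x)
  refine ⟨⟨x, hxH⟩, ?_, rfl⟩
  rw [← hC.2]
  refine H3.mem_normalizer_of_conj_mem fun c hc => ?_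
  obtain ⟨d, hd, e⟩ := H3.conj_mem_of_mem_normalizer hx (mem_map_of_mem H.subtype hc)
  rwa [show (⟨x, hxH⟩ : H) * c * ⟨x, hxH⟩⁻¹ = d from Subtype.ext e.symm]

theorem exists_carter [Group.IsSolvable G] : ∃ C : Subgroup G, IsCarterSubgroup C :=
  exists_carter_aux _ G rfl

theorem normalizer_hall_le_aux [Group.IsSolvable G] {M : Subgroup G} (hM : IsCoatom M)
    (hn : ¬ M.Normal) (hc : M.normalCore = ⊥) :
    ∃ p : ℕ, p.Prime ∧ (∃ k, M.index = p ^ k) ∧
      ∀ H : Subgroup G, IsPiHall ({p}ᶜ) H → H ≤ M → normalizer (H : Set G) ≤ M := by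
  obtain ⟨B, p, hp, hBn, hB0, -, hab, -, hBp, hmin⟩ :=
    H1.exists_elementary_abelian_normal_le (⊤ : Subgroup G)
      (fun h => hM.1 (eq_top_iff.2 (h ▸ bot_le))) inferInstance
  haveI := Fact.mk hp
  have hBM : ¬ B ≤ M := fun h => hB0 (le_bot_iff.1 (hc ▸ normal_le_normalCore.2 h))
  have hsup : M ⊔ B = ⊤ := hM.2 _ (left_lt_sup.2 hBM)
  have hinf := (isCoatom_of_sup_minNormal hab hmin hsup le_rfl hM.1).1
  have hnc : ¬ B ≤ center G := fun h => hn (by
    rw [← normalizer_eq_top_iff, eq_top_iff, ← hsup]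
    exact sup_le le_normalizer (h.trans (center_le_normalizer _)))
  refine ⟨p, hp, ?_, fun H hH hHM x hx => ?_⟩
  · obtain ⟨k, hk⟩ := IsPGroup.iff_card.1 hBp
    have h1 : M.index ∣ p ^ k := by
      rw [← relIndex_top_right, ← hsup, sup_comm,
        H3.relIndex_sup_right_of_le_normalizer le_normalizer_of_normal, ← hk]
      exact relIndex_dvd_card _ _
    obtain ⟨l, -, hl⟩ := (Nat.dvd_prime_pow hp).1 h1
    exact ⟨l, hl⟩
  · obtain ⟨m, hm, b, hb, rfl⟩ := H3.mem_sup_iff_of_normal'.1 (hsup ▸ mem_top x)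
    have h1 : b ∈ centralizer (H : Set G) := by
      refine mem_centralizer_of_normalizes hHM hinf hb fun k hk => ?_
      have := mul_mem (mul_mem (inv_mem hm) (hHM (H3.conj_mem_of_mem_normalizer hx hk))) hm
      simpa [mul_assoc] using this
    have h2 : b = 1 := mem_bot.1 (inf_centralizer_hall_eq_bot hp hBp hmin hnc hH ▸ ⟨hb, h1⟩)
    rwa [h2, mul_one]

theorem normalizer_hall_le [Group.IsSolvable G] {M : Subgroup G} (hM : IsCoatom M)
    (hn : ¬ M.Normal) : ∃ p : ℕ, p.Prime ∧ (∃ k, M.index = p ^ k) ∧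
      ∀ H : Subgroup G, IsPiHall ({p}ᶜ) H → H ≤ M → normalizer (H : Set G) ≤ M := by
  have hs := QuotientGroup.mk'_surjective M.normalCore
  have hcm : (M.map (QuotientGroup.mk' M.normalCore)).comap (QuotientGroup.mk' _) = M := by
    rw [comap_map_eq, QuotientGroup.ker_mk', sup_eq_left.2 M.normalCore_le]
  have h1 : IsCoatom (M.map (QuotientGroup.mk' M.normalCore)) := by
    refine ⟨fun h => hM.1 (by rw [← hcm, h, comap_top]), fun L hL => comap_injective hs ?_⟩
    rw [comap_top]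
    exact hM.2 _ (hcm.symm.trans_lt ((comap_lt_comap_of_surjective hs).2 hL))
  obtain ⟨p, hp, ⟨k, hk⟩, h2⟩ := normalizer_hall_le_aux h1
    (fun h => hn (hcm ▸ h.comap _)) (by
      rw [eq_bot_iff]
      intro y hy
      obtain ⟨x, rfl⟩ := hs y
      refine mem_bot.2 ((QuotientGroup.eq_one_iff x).2 ?_)
      exact normal_le_normalCore.2 ((comap_mono (normalCore_le _)).trans hcm.le) hy)
  refine ⟨p, hp, ⟨k, by rw [← hcm, index_comap_of_surjective _ hs, hk]⟩, fun H hH hHM x hx => ?_⟩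
  rw [← hcm]
  exact h2 _ (H3.isPiHall_map hH hs) (map_mono hHM) (le_normalizer_map _ (mem_map_of_mem _ hx))

theorem exists_system_le_of_isCoatom [Group.IsSolvable G] {M : Subgroup G} (hM : IsCoatom M)
    (hn : ¬ M.Normal) {L : Nat.Primes → Subgroup M} (hL : IsComplementSystem L) :
    ∃ K : Nat.Primes → Subgroup G, IsComplementSystem K ∧
      systemNormalizer K ≤ (systemNormalizer L).map M.subtype := by
  obtain ⟨p, hp, ⟨k, hk⟩, h⟩ := normalizer_hall_le hM hn
  obtain ⟨K, hK⟩ := exists_isComplementSystem (G := G)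
  obtain ⟨Q, hQ⟩ := H3.exists_isPiHall (G := M) ({p}ᶜ)
  have h1 : IsPiHall ({p}ᶜ) (Q.map M.subtype) := by
    refine H3.isPiHallOf_top_iff.1 (H3.isPiHallOf_trans (H3.isPiHallOf_map_subtype_iff.2 hQ)
      le_top ?_)
    rw [relIndex_top_right, hk, compl_compl]
    exact H3.piNum_prime_pow hp (Set.mem_singleton p) k
  obtain ⟨g, hg⟩ := H3.exists_conj_eq_of_isPiHall (isComplementSystem_iff.1 hK ⟨p, hp⟩) h1
  have key : ∀ K : Nat.Primes → Subgroup G, IsComplementSystem K → K ⟨p, hp⟩ ≤ M →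
      IsComplementSystem fun q => (K q).subgroupOf M := by
    intro K hK hKM
    refine isComplementSystem_iff.2 fun q => ?_
    have hq := isComplementSystem_iff.1 hK q
    by_cases hqp : q = ⟨p, hp⟩
    · subst hqp
      exact (H3.isPiHallOf_iff_subgroupOf hKM).1 (H3.isPiHallOf_of_isPiHall hq hKM)
    · rw [H3.isPiHall_compl_singleton_iff q.2] at hq ⊢
      obtain ⟨h2, l, hl⟩ := hq
      refine ⟨h2.coprime_dvd_left (H3.card_subgroupOf_dvd _ _), l, ?_⟩
      rw [← hl]
      refine relIndex_eq_index_of_coprime ?_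
      rw [hl, hk]
      exact Nat.coprime_pow_primes l k q.2 hp fun h3 => hqp (Subtype.ext h3)
  have h2 : MulAut.conj g • K ⟨p, hp⟩ ≤ M := hg ▸ map_subtype_le _
  obtain ⟨m, hm⟩ := system_conj (key _ (system_smul hK g) h2) hL
  have hK' := system_smul (system_smul hK g) (m : G)
  have h3 : MulAut.conj (m : G) • MulAut.conj g • K ⟨p, hp⟩ ≤ M :=
    H3.conj_smul_le_iff.2 fun x hx => mul_mem (mul_mem m.2 (h2 hx)) (inv_mem m.2)
  refine ⟨_, hK', fun x hx => ?_⟩
  have hxM : x ∈ M := h _ (isComplementSystem_iff.1 hK' ⟨p, hp⟩) h3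
    (mem_systemNormalizer.1 hx ⟨p, hp⟩)
  refine ⟨⟨x, hxM⟩, mem_systemNormalizer.2 fun q => ?_, rfl⟩
  have h4 : L q = (MulAut.conj (m : G) • MulAut.conj g • K q).subgroupOf M := by
    rw [← hm q]
    exact (H1.comap_conj_smul M.subtype m _).symm
  rw [h4]
  exact H3.mem_normalizer_of_conj_mem fun y hy => mem_subgroupOf.2
    (H3.conj_mem_of_mem_normalizer (mem_systemNormalizer.1 hx q) (mem_subgroupOf.1 hy))

theorem exists_system_le_carter_aux (n : ℕ) : ∀ (G : Type u) [Group G] [Finite G]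
    [Group.IsSolvable G], Nat.card G = n → ∀ C : Subgroup G, IsCarterSubgroup C →
      ∃ K : Nat.Primes → Subgroup G, IsComplementSystem K ∧ systemNormalizer K ≤ C := by
  induction n using Nat.strong_induction_on with
  | _ n ih =>
  intro G _ _ _ hn C hC
  rcases eq_top_or_exists_le_coatom C with rfl | ⟨M, hM, hCM⟩
  · obtain ⟨K, hK⟩ := exists_isComplementSystem (G := G)
    exact ⟨K, hK, le_top⟩
  obtain ⟨L, hL, hLC⟩ := ih _ (hn ▸ H1.card_lt_of_ne_top hM.1) M rfl _ (IsCarter.subgroupOf hC hCM)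
  obtain ⟨K, hK, h⟩ := exists_system_le_of_isCoatom hM (fun h => hM.1
    ((IsCarter.normalizer_eq_of_le hC hCM).symm.trans (normalizer_eq_top _))) hL
  exact ⟨K, hK, h.trans ((map_mono hLC).trans (map_subgroupOf_eq_of_le hCM).le)⟩

theorem exists_system_le_carter [Group.IsSolvable G] {C : Subgroup G} (hC : IsCarterSubgroup C) :
    ∃ K : Nat.Primes → Subgroup G, IsComplementSystem K ∧ systemNormalizer K ≤ C :=
  exists_system_le_carter_aux _ G rfl C hC

end H58
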