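import Mathlib
import Cfsg.Agent.Base
import Cfsg.Agent.Lib.Push.NatApi
import Cfsg.Agent.Lib.GL.Two
import Cfsg.Agent.Lib.BG.Api.Basic

/-! From `IsNaturalSL2Module` to the coordinate model `NatSec`. -/

set_option autoImplicit false

namespace H58.Nat2

open Cfsg Subgroup H69 H68.Push H24 Matrix
open scoped MatrixGroups commutatorElement

theorem bridge {G : Type*} [Group G] [Finite G] {p : ℕ} [Fact p.Prime] {F : Type*} [Field F] [Fintype F]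
    [CharP F p] {V L : Subgroup G} (hnat : IsNaturalSL2Module F V L) (hf : L ⊓ 𝐂(V) = ⊥) (S : Sylow p L) :
    ∃ (ρ : G → SL(2, F)) (ψ : G → Fin 2 → F), NatSec F L V ⊥ ((S : Subgroup L).map L.subtype) ρ ψ ∧
      V ⊓ 𝐂(L) = ⊥ := by
  classical
  obtain ⟨hLV, ρ, ψ, hs, hk, he⟩ := hnat
  obtain ⟨m, hm⟩ := MulAction.exists_smul_eq SL(2, F) (S.mapSurjective hs) (H10.unitriSylowSL (Fin 2) F p)
  have hm' : ∀ g, g ∈ H10.unitriSL (Fin 2) F ↔ ∃ s ∈ S, m * ρ s * m⁻¹ = g := fun g => by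
    rw [← H10.coe_unitriSylowSL p, ← hm, coe_smul_sylow, mem_cj']
    constructor
    · rintro ⟨_, ⟨s, hs, rfl⟩, rfl⟩; exact ⟨s, hs, rfl⟩
    · rintro ⟨s, hs, rfl⟩; exact ⟨_, ⟨s, hs, rfl⟩, rfl⟩
  have hup : ∀ g : SL(2, F), g ∈ H10.unitriSL (Fin 2) F → g = upT (g.1 0 1) := fun g hg => by
    obtain ⟨h1, h2, h3⟩ := H10.mem_unitriSL_two.1 hg
    ext i j
    fin_cases i <;> fin_cases j <;> first | exact h1 | exact h2 | exact h3 | rfl
  let ρ' : G → SL(2, F) := fun x => if h : x ∈ L then m * ρ ⟨x, h⟩ * m⁻¹ else 1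
  let ψ' : G → Fin 2 → F := fun v => if h : v ∈ V then (m : Matrix (Fin 2) (Fin 2) F) *ᵥ ψ (Additive.ofMul ⟨v, h⟩) else 0
  have e1 : ∀ x : L, ρ' x = m * ρ x * m⁻¹ := fun x => dif_pos x.2
  have e2 : ∀ v : V, ψ' v = (m : Matrix (Fin 2) (Fin 2) F) *ᵥ ψ (Additive.ofMul v) := fun v => dif_pos v.2
  have hinv : ∀ s : Fin 2 → F, ((m⁻¹ : SL(2, F)) : Matrix (Fin 2) (Fin 2) F) *ᵥ (m : Matrix (Fin 2) (Fin 2) F) *ᵥ s = s := fun s => by
    rw [mulVec_mulVec, ← Matrix.SpecialLinearGroup.coe_mul, inv_mul_cancel, Matrix.SpecialLinearGroup.coe_one, one_mulVec]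
  have hinj : ∀ u ∈ V, ∀ v ∈ V, ψ' u = ψ' v → u = v := fun u hu v hv h => by
    rw [e2 ⟨u, hu⟩, e2 ⟨v, hv⟩] at h
    have := congrArg (((m⁻¹ : SL(2, F)) : Matrix (Fin 2) (Fin 2) F) *ᵥ ·) h
    simp only [hinv] at this
    exact congrArg Subtype.val (Additive.ofMul.injective (ψ.injective this))
  have hmul : ∀ u ∈ V, ∀ v ∈ V, ψ' (u * v) = ψ' u + ψ' v := fun u hu v hv => by
    rw [e2 ⟨u, hu⟩, e2 ⟨v, hv⟩, ← mulVec_add, ← map_add]
    exact e2 (⟨u, hu⟩ * ⟨v, hv⟩)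
  have heq : ∀ x ∈ L, ∀ v ∈ V, ψ' (x * v * x⁻¹) = (ρ' x : Matrix (Fin 2) (Fin 2) F) *ᵥ ψ' v := fun x hx v hv => by
    obtain ⟨w, hw1, hw2⟩ := he ⟨x, hx⟩ ⟨v, hv⟩
    rw [← show (w : G) = x * v * x⁻¹ from hw1, e2, hw2, e1 ⟨x, hx⟩, e2 ⟨v, hv⟩, Matrix.SpecialLinearGroup.coe_mul,
      Matrix.SpecialLinearGroup.coe_mul, ← mulVec_mulVec, ← mulVec_mulVec, hinv]
  have hsur : ∀ g, ∃ x ∈ L, ρ' x = g := fun g => by
    obtain ⟨x, hx⟩ := hs (m⁻¹ * g * m)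
    exact ⟨x, x.2, by rw [e1, hx]; group⟩
  have h0 : ψ' 1 = 0 := by simpa using hmul 1 V.one_mem 1 V.one_mem
  have hC : V ⊓ 𝐂(L) = ⊥ := eq_bot_iff.2 fun v hv => by
    refine hinj v hv.1 1 V.one_mem ?_
    obtain ⟨x, hx, e⟩ := hsur (upT 1)
    obtain ⟨y, hy, e'⟩ := hsur (loT 1)
    have h1 := heq x hx v hv.1
    have h2 := heq y hy v hv.1
    rw [mem_centralizer_iff_commute.1 hv.2 _ hx, mul_inv_cancel_right, e, upT_mulVec] at h1
    rw [mem_centralizer_iff_commute.1 hv.2 _ hy, mul_inv_cancel_right, e', loT_mulVec] at h2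
    have h3 := congrFun h1 0
    have h4 := congrFun h2 1
    rw [h0]
    ext i
    fin_cases i
    · simpa using h4
    · simpa using h3
  have hupT : ∀ t ∈ (S : Subgroup L).map L.subtype, ∃ c, ρ' t = upT c := by
    rintro _ ⟨s, hs, rfl⟩
    exact ⟨_, (e1 s).trans (hup _ ((hm' _).2 ⟨s, hs, rfl⟩))⟩
  have hupS : ∀ c, ∃ t ∈ (S : Subgroup L).map L.subtype, ρ' t = upT c := fun c => by
    obtain ⟨s, hs, e⟩ := (hm' (upT c)).1 (H10.mem_unitriSL_two.2 ⟨rfl, rfl, rfl⟩)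
    exact ⟨s, ⟨s, hs, rfl⟩, (e1 s).trans e⟩
  refine ⟨ρ', ψ', ⟨isSec_bot hLV fun u hu => mem_centralizer_iff_commute.2 fun v hv => hinj _ (mul_mem hv hu) _
    (mul_mem hu hv) (by rw [hmul _ hv _ hu, hmul _ hu _ hv, add_comm]), map_subtype_le _,
    fun x hx y hy => ?_, hmul, hsur, fun s => ?_, fun v hv => ?_, fun x hx => ?_, heq, fun v hv => ?_,
    hupT, hupS⟩, hC⟩
  · rw [e1 ⟨x, hx⟩, e1 ⟨y, hy⟩, show ρ' (x * y) = _ from e1 (⟨x, hx⟩ * ⟨y, hy⟩), map_mul]; group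
  · refine ⟨_, (ψ.symm (((m⁻¹ : SL(2, F)) : Matrix (Fin 2) (Fin 2) F) *ᵥ s)).toMul.2, ?_⟩
    rw [e2, ofMul_toMul, AddEquiv.apply_symm_apply, mulVec_mulVec, ← Matrix.SpecialLinearGroup.coe_mul,
      mul_inv_cancel, Matrix.SpecialLinearGroup.coe_one, one_mulVec]
  · rw [cm_bot]
    refine ⟨fun h => ?_, fun h => ?_⟩
    · rw [hinj v hv 1 V.one_mem (h.trans h0.symm)]; exact one_mem _
    · rw [mem_bot.1 (hC.le ⟨hv, h⟩), h0]
  · rw [cm_bot, e1 ⟨x, hx⟩, mul_inv_eq_one, mul_eq_left, ← MonoidHom.mem_ker, hk, mem_subgroupOf]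
  · rw [cm_bot]
    refine ⟨fun h => ?_, fun h => mem_centralizer_iff_commute.2 fun t ht => ?_⟩
    · obtain ⟨t, ht, e⟩ := hupS 1
      have h1 := heq t (map_subtype_le _ ht) v hv
      rw [mem_centralizer_iff_commute.1 h _ ht, mul_inv_cancel_right, e, upT_mulVec] at h1
      simpa using congrFun h1 0
    · obtain ⟨c, e⟩ := hupT t ht
      refine mul_inv_eq_iff_eq_mul.1 (hinj _ (H69.conj_mem_of_mem_normalizer (hLV (map_subtype_le _ ht)) hv) _ hv ?_)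
      rw [heq t (map_subtype_le _ ht) v hv, e, upT_mulVec, h]
      ext i
      fin_cases i
      · simp
      · simp [h]

end H58.Nat2
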